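import Mathlib
import Cfsg.Agent.H35.CRd
import Cfsg.Agent.S1230
import Cfsg.Agent.FT.Base
import Cfsg.Agent.ClassBase.RelHom
import Cfsg.Agent.H68.CAEvenB

/-! Piece INV of S4137 (helper64 for helper46) -/

set_option autoImplicit false
set_option linter.style.haveILetI false

namespace Cfsg.Agent.H46CS

open Cfsg.Agent.SC Cfsg.Agent.H68.CA Cfsg.Agent.H35.CR Cfsg.Agent.H34

universe u

variable {G : Type u} [Group G] [Finite G]

/-- a group with a normal abelian subgroup of odd index is solvable -/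
theorem solvable_of_abelian_odd_index (A : Subgroup G) [A.Normal] (hA : ∀ x ∈ A, ∀ y ∈ A, x * y = y * x)
    (hodd : Odd A.index) : Group.IsSolvable G := by
  rw [Group.isSolvable_iff_subgroup_quotient A]
  refine ⟨?_, ?_⟩
  · exact Group.isSolvable_of_comm (fun a b => Subtype.ext (hA a a.2 b b.2))
  · exact Cfsg.Agent.FT.solvable_of_odd (by rwa [← Subgroup.index_eq_card])

/-- the simple situation `ES` for the centralizer of an involution -/
theorem es_of_ns (hns : ¬ Group.IsSolvable G) {A : Subgroup G} (hA : SelfCent A)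
    (h2 : 2 ∣ Nat.card A) : ES A := by
  classical
  have hp2 : Fact (Nat.Prime 2) := ⟨Nat.prime_two⟩
  obtain ⟨S, hS⟩ := hA.exists_sylow_le h2
  refine ⟨hA, h2, ?_, ?_⟩
  · intro h1
    have hn : A.Normal := Subgroup.normalizer_eq_top_iff.1 h1
    apply hns
    refine solvable_of_abelian_odd_index A (fun x hx y hy => hA.comm hx hy) ?_
    rw [← Nat.not_even_iff_odd, even_iff_two_dvd]
    intro h3
    exact S.not_dvd_index (h3.trans (Subgroup.index_dvd_of_le hS))
  · intro hN
    have h2G : 2 ∣ Nat.card G := h2.trans (Subgroup.card_subgroup_dvd_card A)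
    have h2S : 2 ∣ Nat.card S := S.dvd_card_of_dvd_card h2G
    obtain ⟨s, hs⟩ := exists_prime_orderOf_dvd_card' 2 h2S
    have hs1 : (s : G) ≠ 1 := by
      intro h3
      have : s = 1 := Subtype.ext h3
      rw [this, orderOf_one] at hs
      omega
    have hP : Subgroup.normalizer ((S : Subgroup G) : Set G) ≤ Subgroup.centralizer ((S : Subgroup G) : Set G) := by
      intro n hn
      have h3 : n * s * n⁻¹ ∈ A := hS ((Subgroup.mem_normalizer_iff.1 hn s).1 s.2)
      have h4 : n ∈ A := hN (hA.mem_normalizer (hS s.2) hs1 h3)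
      rw [Subgroup.mem_centralizer_iff]
      intro x hx
      exact hA.comm (hS hx) h4
    have hc := MonoidHom.ker_transferSylow_isComplement' S hP
    apply hns
    set K := (MonoidHom.transferSylow S hP).ker with hK
    rw [Group.isSolvable_iff_subgroup_quotient K]
    have hKodd : ¬ 2 ∣ Nat.card K := MonoidHom.not_dvd_card_ker_transferSylow S hP
    refine ⟨?_, ?_⟩
    · exact Cfsg.Agent.FT.solvable_of_odd (by
        rw [← Nat.not_even_iff_odd, even_iff_two_dvd]; exact hKodd)
    · have h5 : Nat.card (G ⧸ K) = Nat.card S := by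
        rw [← Subgroup.index_eq_card]
        exact hc.symm.index_eq_card
      have h6 : IsPGroup 2 (G ⧸ K) := by
        obtain ⟨f, hf⟩ := IsPGroup.iff_card.1 S.isPGroup'
        exact IsPGroup.of_card (n := f) (by rw [h5, hf])
      have h7 : Group.IsNilpotent (G ⧸ K) := h6.isNilpotent
      infer_instance

theorem es_zass (hns : ¬ Group.IsSolvable G) {A : Subgroup G} (h : ES A) :
    Cfsg.IsZassenhausGroup G (G ⧸ Nn A) := by
  classical
  have hp2 : Fact (Nat.Prime 2) := ⟨Nat.prime_two⟩
  obtain ⟨g, hg⟩ : ∃ g, g ∉ Nn A := by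
    by_contra hcon
    push Not at hcon
    exact h.ne_top (eq_top_iff.2 fun g _ => hcon g)
  have hy : al A ≠ (QuotientGroup.mk g : G ⧸ Nn A) := by
    intro h1
    apply hg
    rw [← smul_al_iff, smul_al, h1]
  obtain ⟨d, hd, hd1⟩ := h.exists_stab_ne hy
  refine ⟨?_, h.two_trans, h.three, ⟨d, hd1, _, _, hy, (mem_stab2.1 hd).1, (mem_stab2.1 hd).2⟩, ?_⟩
  · constructor
    intro x y hxy
    have hker : (MulAction.toPermHom G (G ⧸ Nn A)).ker = ⊥ := by
      set K := (MulAction.toPermHom G (G ⧸ Nn A)).ker with hK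
      have hfix : ∀ k ∈ K, ∀ a : G ⧸ Nn A, k • a = a := by
        intro k hk a
        rw [hK, MonoidHom.mem_ker] at hk
        exact congrArg (fun p : Equiv.Perm (G ⧸ Nn A) => p a) hk
      have hKA : ∀ k ∈ K, k ∈ A → k = 1 := fun k hk hkA => h.A_fix hkA hy (hfix k hk _)
      have hKN : ∀ k ∈ K, k ∈ Nn A := fun k hk => smul_al_iff.1 (hfix k hk _)
      obtain ⟨t, htA, -, ht1⟩ := h.exists_inv
      rw [Subgroup.eq_bot_iff_forall]
      intro k hk
      have h1 : k * t * k⁻¹ * t⁻¹ ∈ A :=
        A.mul_mem ((Subgroup.mem_normalizer_iff.1 (hKN k hk) t).1 htA) (A.inv_mem htA)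
      have h2 : k * t * k⁻¹ * t⁻¹ ∈ K := by
        have h3 : t * k⁻¹ * t⁻¹ ∈ K := (inferInstance : K.Normal).conj_mem _ (K.inv_mem hk) t
        have h4 := K.mul_mem hk h3
        have h5 : k * (t * k⁻¹ * t⁻¹) = k * t * k⁻¹ * t⁻¹ := by group
        rwa [h5] at h4
      have h3 := hKA _ h2 h1
      have h4 : k * t = t * k := by
        calc k * t = (k * t * k⁻¹ * t⁻¹) * (t * k) := by group
          _ = t * k := by rw [h3, one_mul]
      exact hKA k hk (h.free htA ht1 h4)
    have h2 : x⁻¹ * y ∈ (MulAction.toPermHom G (G ⧸ Nn A)).ker := by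
      rw [MonoidHom.mem_ker]
      ext a
      show (x⁻¹ * y) • a = a
      rw [mul_smul, ← hxy, inv_smul_smul]
    rw [hker, Subgroup.mem_bot] at h2
    exact inv_mul_eq_one.1 h2
  · intro N hN hNt
    by_contra hcon
    push Not at hcon
    apply hns
    have hcN : Nat.card N = Nat.card A + 1 := by
      have h1 : (⊥ : Subgroup N).index = Nat.card (G ⧸ Nn A) :=
        (congrArg Subgroup.index (hcon (al A))).symm.trans
          (@MulAction.index_stabilizer_of_transitive N (G ⧸ Nn A) _ _ (al A) hNt)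
      rw [← h.card_omega, ← h1, Subgroup.index_bot]
    rw [Group.isSolvable_iff_subgroup_quotient N]
    refine ⟨?_, ?_⟩
    · apply Cfsg.Agent.FT.solvable_of_odd
      rw [hcN]
      exact (even_iff_two_dvd.2 h.two).add_one
    · have hsN : Group.IsSolvable (Nn A) := by
        refine solvable_of_abelian_odd_index (A.subgroupOf (Nn A)) ?_ h.odd
        intro x hx y hy
        exact Subtype.ext (h.sc.comm (Subgroup.mem_subgroupOf.1 hx) (Subgroup.mem_subgroupOf.1 hy))
      have hsur : Function.Surjective ((QuotientGroup.mk' N).comp (Nn A).subtype) := by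
        intro z
        obtain ⟨w, rfl⟩ := QuotientGroup.mk'_surjective N z
        obtain ⟨x, hx⟩ := hNt.exists_smul_eq (al A) (QuotientGroup.mk w)
        have h1 : (x : G) • al A = QuotientGroup.mk w := hx
        have h2 : (x : G)⁻¹ * w ∈ Nn A := by
          rw [smul_al] at h1
          exact QuotientGroup.eq.1 h1
        refine ⟨⟨_, h2⟩, ?_⟩
        show QuotientGroup.mk' N ((x : G)⁻¹ * w) = QuotientGroup.mk' N w
        rw [map_mul, map_inv]
        have h3 : QuotientGroup.mk' N (x : G) = 1 := (QuotientGroup.eq_one_iff _).2 x.2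
        rw [h3, inv_one, one_mul]
      exact Group.isSolvable_of_surjective hsur

/-- every non-identity element of `A` is an involution -/
theorem es_all_inv (hns : ¬ Group.IsSolvable G) {A : Subgroup G} (h : ES A) :
    ∀ a ∈ A, a * a = 1 := by
  classical
  obtain ⟨g, hg⟩ : ∃ g, g ∉ Nn A := by
    by_contra hcon
    push Not at hcon
    exact h.ne_top (eq_top_iff.2 fun g _ => hcon g)
  have hy : al A ≠ (QuotientGroup.mk g : G ⧸ Nn A) := by
    intro h1
    apply hg
    rw [← smul_al_iff, smul_al, h1]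
  have hker : Cfsg.Agent.H37.ZT.IsKer G (al A) A := by
    refine ⟨?_, ?_, h.ker_reg⟩
    · intro a ha
      exact smul_al_iff.2 (Subgroup.le_normalizer ha)
    · intro n hn u hu
      exact (Subgroup.mem_normalizer_iff.1 (smul_al_iff.1 hn) u).1 hu
  obtain ⟨s, -, -, -, -, hc⟩ := h.exists_swap hy
  have hcard := h.card_omega
  have h2 : Nat.card (J A) = Nat.card A - 1 := by
    rw [h.card_IC_eq.1]
    rcases Cfsg.Agent.H37.ZT.zass_abelian (es_zass hns h) hy hker (fun x hx y hy => h.sc.comm hx hy) with h1 | ⟨h1, -⟩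
    · rw [hc, hcard] at h1; omega
    · exfalso
      rw [hc, hcard] at h1
      obtain ⟨k, hk⟩ := h.two
      have hpos : 0 < Nat.card A := Nat.card_pos
      omega
  have h3 : Nat.card {a : A // a ≠ 1} = Nat.card A - 1 := by
    have : Fintype A := Fintype.ofFinite _
    rw [Nat.card_eq_fintype_card, Nat.card_eq_fintype_card, Fintype.card_subtype_compl, Fintype.card_subtype_eq]
  let f : J A → {a : A // a ≠ 1} := fun x => ⟨⟨x, x.2.1⟩, fun h1 => x.2.2.2 (congrArg Subtype.val h1)⟩
  have hf : Function.Injective f := by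
    intro x y hxy
    exact Subtype.ext (congrArg (fun z => ((z : A) : G)) (congrArg Subtype.val hxy))
  have hb : Function.Bijective f := (Nat.bijective_iff_injective_and_card f).2 ⟨hf, by rw [h2, h3]⟩
  intro a ha
  by_cases ha1 : a = 1
  · rw [ha1, one_mul]
  obtain ⟨x, hx⟩ := hb.2 ⟨⟨a, ha⟩, fun h1 => ha1 (congrArg Subtype.val h1)⟩
  have h4 : (x : G) = a := congrArg (fun z => ((z : A) : G)) (congrArg Subtype.val hx)
  rw [← h4]
  exact x.2.2.1

theorem es_card (hns : ¬ Group.IsSolvable G) {A : Subgroup G} (h : ES A) : Nat.card A = e A + 1 := by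
  classical
  rw [← h.card_IC_eq.1]
  have h3 : Nat.card {a : A // a ≠ 1} = Nat.card A - 1 := by
    have : Fintype A := Fintype.ofFinite _
    rw [Nat.card_eq_fintype_card, Nat.card_eq_fintype_card, Fintype.card_subtype_compl, Fintype.card_subtype_eq]
  have h4 : Nat.card (J A) = Nat.card {a : A // a ≠ 1} := by
    apply Nat.card_congr
    exact ⟨fun x => ⟨⟨x, x.2.1⟩, fun h1 => x.2.2.2 (congrArg Subtype.val h1)⟩,
      fun a => ⟨a.1, a.1.2, es_all_inv hns h _ a.1.2, fun h1 => a.2 (Subtype.ext h1)⟩, fun x => rfl, fun a => rfl⟩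
  have : 0 < Nat.card A := Nat.card_pos
  omega

theorem inv (hns : ¬ Group.IsSolvable G) (hkey : ∀ t : G, orderOf t = 2 → SelfCent (cz t)) :
    ∃ a : ℕ, 0 < a ∧ Nonempty (G ≃* Matrix.ProjectiveSpecialLinearGroup (Fin 2) (GaloisField 2 a)) := by
  classical
  have hp2 : Fact (Nat.Prime 2) := ⟨Nat.prime_two⟩
  have h2 : 2 ∣ Nat.card G := Cfsg.Agent.FT.even_of_not_solvable hns
  obtain ⟨t, ht⟩ := exists_prime_orderOf_dvd_card' 2 h2
  have key : ∀ t : G, orderOf t = 2 → ES (Subgroup.centralizer {t}) := by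
    intro t ht
    refine es_of_ns hns (hkey t ht) ?_
    rw [← ht]
    exact (cz t).orderOf_dvd_natCard (self_mem t)
  have h := key t ht
  obtain ⟨S, hS⟩ := h.sc.exists_sylow_le h.two
  have hA2 : IsPGroup 2 (Subgroup.centralizer {t}) := by
    intro x
    refine ⟨1, ?_⟩
    apply Subtype.ext
    rw [pow_one, sq]
    exact es_all_inv hns h x x.2
  have hSA : (S : Subgroup G) = Subgroup.centralizer {t} := (S.is_maximal' hA2 hS).symm
  have he := h.one_lt
  have hJ := es_card hns h
  have hcS : Nat.card S = Nat.card (Subgroup.centralizer {t}) := by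
    rw [← hSA]
  have hS3 : 3 ≤ Nat.card S := by omega
  have hSc : ¬ IsCyclic (S : Subgroup G) := by
    intro hcyc
    obtain ⟨g, hg⟩ := hcyc.exists_generator
    have h3 : Nat.card S = orderOf g := by
      rw [← Nat.card_zpowers]
      have : Subgroup.zpowers g = ⊤ := by
        rw [eq_top_iff]; intro x _; exact hg x
      rw [this, Subgroup.card_top]
    have h4 : orderOf g ∣ 2 := by
      apply orderOf_dvd_of_pow_eq_one
      apply Subtype.ext
      rw [sq]
      exact es_all_inv hns h g (by rw [← hSA]; exact g.2)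
    have := Nat.le_of_dvd (by norm_num) h4
    omega
  have hSn : ¬ (S : Subgroup G).Normal := by
    intro hn
    apply h.ne_top
    rw [← hSA]
    exact Subgroup.normalizer_eq_top_iff.2 hn
  obtain ⟨F, iF, iFF, hF, ⟨hG⟩⟩ := Cfsg.Agent.S1230.result S hSc hSn (by
    intro u hu
    have h1 := key u hu
    refine ⟨⟨⟨fun x y => Subtype.ext (h1.sc.comm x.2 y.2)⟩⟩, ?_⟩
    intro c hc
    rw [sq]
    exact es_all_inv hns h1 c hc)
  obtain ⟨f, hf⟩ := IsPGroup.iff_card.1 S.isPGroup'
  have hf0 : 0 < f := by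
    by_contra hcon
    have h3 : f = 0 := by omega
    rw [h3, pow_zero] at hf
    omega
  refine ⟨f, hf0, ?_⟩
  have : Fintype (GaloisField 2 f) := Fintype.ofFinite _
  have hcard : Fintype.card (GaloisField 2 f) = 2 ^ f := by
    rw [← Nat.card_eq_fintype_card, GaloisField.card 2 f hf0.ne']
  exact ⟨hG.trans (ClassBase.pslCongr (FiniteField.ringEquivOfCardEq ((hF.trans hf).trans hcard.symm)))⟩

end Cfsg.Agent.H46CS
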